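import Cfsg.Agent.Lib.Theta.Poisson

/-!
# The theta series of an even unimodular lattice of rank 24 is a modular form of weight 12
-/

set_option autoImplicit false

namespace CfsgLib.Theta

open Matrix Complex Real ModularForm SlashInvariantForm EisensteinSeries
open UpperHalfPlane hiding I
open scoped MatrixGroups

variable {n : ℕ} {B : Matrix (Fin n) (Fin n) ℤ}

theorem form_intCast (B : Matrix (Fin n) (Fin n) ℤ) (x : Fin n → ℤ) (R : Type*) [CommRing R] :
    ((fun i => (x i : R)) ⬝ᵥ B.map (Int.cast : ℤ → R) *ᵥ fun i => (x i : R)) = (x ⬝ᵥ B *ᵥ x : ℤ) := by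
  simp [mulVec, dotProduct]

theorem posDef_cast (hs : B.IsSymm) (hpos : ∀ x, 0 ≤ x ⬝ᵥ B *ᵥ x) (hdet : B.det = 1) :
    (B.map (Int.cast : ℤ → ℝ)).PosDef := by
  refine (PosSemidef.posDef_iff_isUnit (PosSemidef.of_dotProduct_mulVec_nonneg
    (isHermitian_iff_isSymm.2 (hs.map _)) fun x => ?_)).2 ?_
  · have hd : DenseRange fun (q : Fin n → ℚ) i => (q i : ℝ) :=
      DenseRange.piMap fun _ => Rat.denseRange_cast
    refine hd.induction_on x (isClosed_le continuous_const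
      (by unfold mulVec dotProduct; fun_prop)) fun q => ?_
    obtain ⟨d, hd⟩ := IsLocalization.exist_integer_multiples_of_finite (nonZeroDivisors ℤ) q
    choose y hy using hd
    have h0 : ((d : ℤ) : ℝ) ≠ 0 := by exact_mod_cast nonZeroDivisors.coe_ne_zero d
    have h1 : (fun i => (q i : ℝ)) = ((d : ℤ) : ℝ)⁻¹ • fun i => (y i : ℝ) := by
      ext i
      have := congrArg (Rat.cast : ℚ → ℝ) (hy i)
      simp only [eq_intCast, Rat.cast_intCast, zsmul_eq_mul, Rat.cast_mul] at this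
      simp [this, h0]
    rw [star_trivial, h1, mulVec_smul, dotProduct_smul, smul_dotProduct, form_intCast, smul_eq_mul,
      smul_eq_mul, ← mul_assoc]
    exact mul_nonneg (mul_self_nonneg _) (by exact_mod_cast hpos y)
  · rw [isUnit_iff_isUnit_det, show B.map (Int.cast : ℤ → ℝ) = (Int.castRingHom ℝ).mapMatrix B from rfl,
      ← RingHom.map_det, hdet, map_one]
    exact isUnit_one

/-- The theta series as a function on the right half plane. -/
noncomputable def th (B : Matrix (Fin n) (Fin n) ℤ) (t : ℂ) : ℂ :=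
  ∑' x : Fin n → ℤ, cexp (-π * t * (x ⬝ᵥ B *ᵥ x : ℤ))

theorem gauss_zero (t : ℂ) (x : Fin n → ℤ) :
    gauss (B.map (Int.cast : ℤ → ℝ)) t 0 x = cexp (-π * t * (x ⬝ᵥ B *ᵥ x : ℤ)) := by
  rw [gauss, form_cast, form_intCast]; simp

theorem summable_th (hA : (B.map (Int.cast : ℤ → ℝ)).PosDef) {t : ℂ} (ht : 0 < t.re) :
    Summable fun x : Fin n → ℤ => ‖cexp (-π * t * (x ⬝ᵥ B *ᵥ x : ℤ))‖ := by
  simpa only [gauss_zero] using summable_norm_gauss hA ht 0

theorem th_inv (hA : (B.map (Int.cast : ℤ → ℝ)).PosDef) (hdet : B.det = 1) {t : ℂ} (ht : 0 < t.re) :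
    th B t = (1 / t ^ (1 / 2 : ℂ)) ^ n * th B t⁻¹ := by
  obtain ⟨κ, hκ⟩ := poisson hA
  have hu : IsUnit B.det := hdet ▸ isUnit_one
  let e : (Fin n → ℤ) ≃ (Fin n → ℤ) := ⟨B.mulVec, B⁻¹.mulVec,
    fun x => by rw [mulVec_mulVec, nonsing_inv_mul _ hu, one_mulVec],
    fun x => by rw [mulVec_mulVec, mul_nonsing_inv _ hu, one_mulVec]⟩
  have h1 : ∀ t : ℂ, 0 < t.re → th B t = κ * (1 / t ^ (1 / 2 : ℂ)) ^ n * th B t⁻¹ := fun t ht => by
    have := hκ t ht 0
    simp only [gauss_zero] at this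
    rw [th, this, ← e.tsum_eq]
    refine congrArg _ (tsum_congr fun x => ?_)
    have h2 : (fun i => (e x i : ℂ) + I * (0 : Fin n → ℂ) i) =
        (B.map (Int.cast : ℤ → ℝ)).map ofReal *ᵥ fun i => (x i : ℂ) := by
      ext i; simp [e, mulVec, dotProduct]
    rw [dual, h2, form_inv hA, form_cast, form_intCast, div_eq_mul_inv, ofReal_intCast]
  have h2 : th B 1 ≠ 0 := by
    have h3 : th B 1 = ((∑' x : Fin n → ℤ, ‖cexp (-π * 1 * (x ⬝ᵥ B *ᵥ x : ℤ))‖ : ℝ) : ℂ) := by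
      rw [ofReal_tsum, th]
      refine tsum_congr fun x => ?_
      rw [Complex.norm_exp, ofReal_exp]
      simp
    rw [h3, ofReal_ne_zero]
    exact ((summable_th hA (by simp)).tsum_pos (fun _ => norm_nonneg _) 0
      (norm_pos_iff.2 (Complex.exp_ne_zero _))).ne'
  have h3 := h1 1 (by simp)
  simp only [one_cpow, div_one, one_pow, mul_one, inv_one] at h3
  rw [h1 t ht, (mul_eq_right₀ h2).1 h3.symm, one_mul]

theorem differentiableAt_th (hA : (B.map (Int.cast : ℤ → ℝ)).PosDef) (hpos : ∀ x, 0 ≤ x ⬝ᵥ B *ᵥ x)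
    {t : ℂ} (ht : 0 < t.re) : DifferentiableAt ℂ (th B) t := by
  have ho : IsOpen {z : ℂ | t.re / 2 < z.re} := isOpen_lt continuous_const continuous_re
  refine (differentiableOn_tsum_of_summable_norm (summable_th hA (t := (t.re / 2 : ℝ))
    (by simpa using ht)) (fun x => by fun_prop) ho fun x z hz => ?_).differentiableAt
    (ho.mem_nhds (by simpa using ht))
  rw [Complex.norm_exp, Complex.norm_exp]
  have h1 : ∀ w : ℂ, (-π * w * (x ⬝ᵥ B *ᵥ x : ℤ) : ℂ).re = -(π * w.re * (x ⬝ᵥ B *ᵥ x : ℤ)) :=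
    fun w => by simp
  have h2 : (0 : ℝ) ≤ (x ⬝ᵥ B *ᵥ x : ℤ) := by exact_mod_cast hpos x
  rw [h1, h1, ofReal_re]
  have := pi_pos
  have : t.re / 2 ≤ z.re := le_of_lt hz
  gcongr

theorem hasSum_th (hA : (B.map (Int.cast : ℤ → ℝ)).PosDef) (hpos : ∀ x, 0 ≤ x ⬝ᵥ B *ᵥ x)
    (heven : ∀ x, 2 ∣ x ⬝ᵥ B *ᵥ x) (τ : ℍ) :
    HasSum (fun m : ℕ => (({x | x ⬝ᵥ B *ᵥ x = 2 * m}.ncard : ℕ) : ℂ) • Function.Periodic.qParam 1 τ ^ m)
      (th B (-I * τ)) := by
  have h1 : ∀ x (m : ℕ), (x ⬝ᵥ B *ᵥ x / 2).toNat = m ↔ x ⬝ᵥ B *ᵥ x = 2 * m := fun x m => by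
    have := hpos x; have := heven x; omega
  have h2 := (summable_th hA (t := -I * τ) (by simpa using τ.im_pos)).of_norm.hasSum.tsum_fiberwise
    fun x => (x ⬝ᵥ B *ᵥ x / 2).toNat
  have h3 : ∀ m : ℕ, ∑' x : (fun x => (x ⬝ᵥ B *ᵥ x / 2).toNat) ⁻¹' {m},
      cexp (-π * (-I * τ) * ((x : Fin n → ℤ) ⬝ᵥ B *ᵥ x : ℤ)) =
      (({x | x ⬝ᵥ B *ᵥ x = 2 * m}.ncard : ℕ) : ℂ) • Function.Periodic.qParam 1 τ ^ m := fun m => by
    refine (tsum_congr (g := fun _ => Function.Periodic.qParam 1 τ ^ m) fun x => ?_).trans ?_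
    · rw [(h1 x m).1 x.2, Function.Periodic.qParam, ← Complex.exp_nat_mul]
      congr 1; push_cast; ring
    · rw [tsum_const, Nat.card_coe_set_eq, nsmul_eq_mul, smul_eq_mul]
      congr 3; ext x; exact h1 x m
  simp only [h3] at h2
  exact h2

/-- The theta series as a modular form. -/
noncomputable def thetaMF {B : Matrix (Fin 24) (Fin 24) ℤ} (hs : B.IsSymm)
    (hpos : ∀ x, 0 ≤ x ⬝ᵥ B *ᵥ x) (heven : ∀ x, 2 ∣ x ⬝ᵥ B *ᵥ x) (hdet : B.det = 1) :
    ModularForm 𝒮ℒ 12 :=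
  have hA := posDef_cast hs hpos hdet
  have h : ∀ γ : SL(2, ℤ), (fun τ : ℍ => th B (-I * τ)) ∣[(12 : ℤ)] γ = fun τ : ℍ => th B (-I * τ) := by
    refine slash_action_generators_SL2Z (funext fun τ => ?_) (funext fun τ => ?_)
    · have h0 := τ.ne_zero
      have h1 : (-I * τ) ^ (1 / 2 : ℂ) * (-I * τ) ^ (1 / 2 : ℂ) = -I * τ := by
        rw [← cpow_add _ _ (mul_ne_zero (by simp) h0)]; norm_num
      rw [slash_S_apply, th_inv hA hdet (t := -I * τ) (by simpa using τ.im_pos), UpperHalfPlane.coe_mk, mul_comm,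
        _root_.one_div_pow, pow_mul _ 2 12, pow_two, h1]
      congr 1
      · rw [mul_pow, neg_pow, show (12 : ℕ) = 4 * 3 from rfl, pow_mul I, I_pow_four]
        norm_num [_root_.zpow_neg]
      · congr 1; field_simp; simp
    · rw [SL_slash_apply, modular_T_smul]
      have h1 := hasSum_th hA hpos heven ((1 : ℝ) +ᵥ τ)
      have h2 : Function.Periodic.qParam 1 (((1 : ℝ) +ᵥ τ : ℍ) : ℂ) = Function.Periodic.qParam 1 τ := by
        simp [Function.Periodic.qParam, mul_add, Complex.exp_add]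
      rw [h2] at h1
      rw [h1.unique (hasSum_th hA hpos heven τ), ModularGroup.denom_apply, ModularGroup.coe_T]
      simp
  { toFun := fun τ => th B (-I * τ)
    slash_action_eq' := fun A hA => by
      obtain ⟨A, rfl⟩ := hA
      exact h A
    holo' := by
      rw [UpperHalfPlane.mdifferentiable_iff]
      refine .congr (f := fun z => th B (-I * z)) (fun z hz => ?_) fun z hz => ?_
      · exact ((differentiableAt_th hA hpos (t := -I * z) (by simpa using hz)).comp z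
          (by fun_prop)).differentiableWithinAt
      · simp [ofComplex_apply_of_im_pos hz]
    bdd_at_cusps' := fun hc => by
      rw [Subgroup.IsArithmetic.isCusp_iff_isCusp_SL2Z] at hc
      rw [OnePoint.isBoundedAt_iff_forall_SL2Z hc]
      intro γ _
      rw [h]
      exact isBoundedAtImInfty_of_hasSum_qExpansion one_pos (hasSum_th hA hpos heven) }

theorem thetaMF_coeff {B : Matrix (Fin 24) (Fin 24) ℤ} (hs : B.IsSymm)
    (hpos : ∀ x, 0 ≤ x ⬝ᵥ B *ᵥ x) (heven : ∀ x, 2 ∣ x ⬝ᵥ B *ᵥ x) (hdet : B.det = 1) (m : ℕ) :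
    (qExpansion 1 (thetaMF hs hpos heven hdet)).coeff m = ({x | x ⬝ᵥ B *ᵥ x = 2 * m}.ncard : ℕ) :=
  (ModularFormClass.qExpansion_coeff_unique one_pos one_mem_strictPeriods_SL
    (f := thetaMF hs hpos heven hdet) (hasSum_th (posDef_cast hs hpos hdet) hpos heven) m).symm

theorem qExpansion_twelve (f : ModularForm 𝒮ℒ 12) (h0 : (qExpansion 1 f).coeff 0 = 1)
    (h1 : (qExpansion 1 f).coeff 1 = 0) : (12 : ℂ) • qExpansion 1 f =
      (7 : ℂ) • qExpansion 1 E₄ ^ 3 + (5 : ℂ) • qExpansion 1 E₆ ^ 2 := by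
  obtain ⟨u, hu⟩ : ∃ u : ModularForm 𝒮ℒ 12, qExpansion 1 u = qExpansion 1 E₄ ^ 3 :=
    ⟨ModularForm.mcast (by decide) (E₄.pow 3), by
      rw [coe_mcast, ModularForm.qExpansion_pow one_pos one_mem_strictPeriods_SL]⟩
  obtain ⟨v, hv⟩ : ∃ v : ModularForm 𝒮ℒ 12, qExpansion 1 v = qExpansion 1 E₆ ^ 2 :=
    ⟨ModularForm.mcast (by decide) (E₆.pow 2), by
      rw [coe_mcast, ModularForm.qExpansion_pow one_pos one_mem_strictPeriods_SL]⟩
  have a : ∀ (f : ModularForm 𝒮ℒ 12) (c : ℂ), qExpansion 1 (c • f : ModularForm 𝒮ℒ 12) =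
      c • qExpansion 1 f := fun f c => ModularForm.qExpansion_smul one_pos one_mem_strictPeriods_SL c f
  have b : ∀ f g : ModularForm 𝒮ℒ 12, qExpansion 1 (f + g : ModularForm 𝒮ℒ 12) =
      qExpansion 1 f + qExpansion 1 g := fun f g =>
    ModularForm.qExpansion_add one_pos one_mem_strictPeriods_SL f g
  have c : ∀ f g : ModularForm 𝒮ℒ 12, qExpansion 1 (f - g : ModularForm 𝒮ℒ 12) =
      qExpansion 1 f - qExpansion 1 g := fun f g =>
    ModularForm.qExpansion_sub one_pos one_mem_strictPeriods_SL f g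
  obtain ⟨g, hg'⟩ : ∃ g : ModularForm 𝒮ℒ 12, g = (12 : ℂ) • f - ((7 : ℂ) • u + (5 : ℂ) • v) := ⟨_, rfl⟩
  have hg : qExpansion 1 g = (12 : ℂ) • qExpansion 1 f -
      ((7 : ℂ) • qExpansion 1 E₄ ^ 3 + (5 : ℂ) • qExpansion 1 E₆ ^ 2) := by
    rw [hg', c, b, a, a, a, hu, hv]
  have : g = 0 := sturm_bound_levelOne (by
    refine lt_of_lt_of_le (b := ((2 : ℕ) : ℕ∞)) (by decide) (PowerSeries.nat_le_order _ _ fun i hi => ?_)
    rw [hg]
    interval_cases i <;>
      norm_num [pow_succ, PowerSeries.coeff_mul, Finset.Nat.antidiagonal_succ, E₄_qExpansion_coeff_one,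
        E₆_qExpansion_coeff_one, E_qExpansion_coeff_zero _ ⟨2, rfl⟩, h0, h1,
        E_qExpansion_coeff_zero _ ⟨3, rfl⟩, -PowerSeries.coeff_zero_eq_constantCoeff])
  rw [this, ModularForm.coe_zero, qExpansion_zero] at hg
  exact sub_eq_zero.1 hg.symm

theorem counts_twelve (f : ModularForm 𝒮ℒ 12) (h0 : (qExpansion 1 f).coeff 0 = 1)
    (h1 : (qExpansion 1 f).coeff 1 = 0) : (qExpansion 1 f).coeff 2 = 196560 ∧
      (qExpansion 1 f).coeff 3 = 16773120 ∧ (qExpansion 1 f).coeff 4 = 398034000 := by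
  have h := qExpansion_twelve f h0 h1
  have h4 : ∀ m, (qExpansion 1 E₄).coeff m = if m = 0 then 1 else 240 * (ArithmeticFunction.sigma 3 m : ℂ) :=
    fun m => by norm_num [E_qExpansion_coeff _ ⟨2, rfl⟩, show bernoulli 4 = -1 / 30 by decide +kernel]
  have h6 : ∀ m, (qExpansion 1 E₆).coeff m = if m = 0 then 1 else -504 * (ArithmeticFunction.sigma 5 m : ℂ) :=
    fun m => by norm_num [E_qExpansion_coeff _ ⟨3, rfl⟩, show bernoulli 6 = 1 / 42 by decide +kernel]
  have s3 : ArithmeticFunction.sigma 3 1 = 1 ∧ ArithmeticFunction.sigma 3 2 = 9 ∧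
    ArithmeticFunction.sigma 3 3 = 28 ∧ ArithmeticFunction.sigma 3 4 = 73 := by decide +kernel
  have s5 : ArithmeticFunction.sigma 5 1 = 1 ∧ ArithmeticFunction.sigma 5 2 = 33 ∧
    ArithmeticFunction.sigma 5 3 = 244 ∧ ArithmeticFunction.sigma 5 4 = 1057 := by decide +kernel
  have a2 := congrArg (PowerSeries.coeff 2) h
  have a3 := congrArg (PowerSeries.coeff 3) h
  have a4 := congrArg (PowerSeries.coeff 4) h
  norm_num [pow_succ, PowerSeries.coeff_mul, Finset.Nat.antidiagonal_succ, h4, h6, s3, s5,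
    -PowerSeries.coeff_zero_eq_constantCoeff] at a2 a3 a4
  exact ⟨by linear_combination a2 / 12, by linear_combination a3 / 12, by linear_combination a4 / 12⟩

end CfsgLib.Theta
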