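import Mathlib

/-!
# Poisson summation for Gaussians of a positive definite quadratic form
-/

set_option autoImplicit false

namespace CfsgLib.Theta

open Matrix Complex Real

section Schur

variable {K : Type*} [Field K] {n : ℕ}

/-- The Schur complement of the top left entry. -/
def schur (A : Matrix (Fin (n + 1)) (Fin (n + 1)) K) : Matrix (Fin n) (Fin n) K :=
  fun i j => A i.succ j.succ - A 0 i.succ * A 0 j.succ / A 0 0

theorem mulVec_cons_zero (A : Matrix (Fin (n + 1)) (Fin (n + 1)) K) (x₀ : K) (x : Fin n → K) :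
    (A *ᵥ Fin.cons x₀ x) 0 = A 0 0 * x₀ + ∑ j, A 0 j.succ * x j := by
  simp [mulVec, dotProduct, Fin.sum_univ_succ]

theorem mulVec_cons_succ {A : Matrix (Fin (n + 1)) (Fin (n + 1)) K} (hA : A.IsSymm)
    (h0 : A 0 0 ≠ 0) (x₀ : K) (x : Fin n → K) (i : Fin n) :
    (A *ᵥ Fin.cons x₀ x) i.succ =
      (schur A *ᵥ x) i + (A *ᵥ Fin.cons x₀ x) 0 * A 0 i.succ / A 0 0 := by
  rw [mulVec_cons_zero]
  simp only [mulVec, dotProduct, Fin.sum_univ_succ, Fin.cons_zero, Fin.cons_succ, schur, sub_mul,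
    Finset.sum_sub_distrib, hA.apply 0 i.succ, add_mul, add_div, Finset.sum_mul, Finset.sum_div]
  rw [Finset.sum_congr rfl fun j _ => show A 0 i.succ * A 0 j.succ / A 0 0 * x j =
    A 0 j.succ * x j * A 0 i.succ / A 0 0 by ring]
  field_simp
  ring

theorem form_cons {A : Matrix (Fin (n + 1)) (Fin (n + 1)) K} (hA : A.IsSymm)
    (h0 : A 0 0 ≠ 0) (x₀ : K) (x : Fin n → K) :
    Fin.cons x₀ x ⬝ᵥ A *ᵥ Fin.cons x₀ x =
      (A 0 0 * x₀ + ∑ j, A 0 j.succ * x j) ^ 2 / A 0 0 + x ⬝ᵥ schur A *ᵥ x := by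
  rw [dotProduct, Fin.sum_univ_succ]
  simp only [mulVec_cons_succ hA h0, mulVec_cons_zero, Fin.cons_zero, Fin.cons_succ, mul_add,
    Finset.sum_add_distrib]
  generalize hs : ∑ j, A 0 j.succ * x j = s
  rw [Finset.sum_congr rfl fun j _ => show x j * ((A 0 0 * x₀ + s) * A 0 j.succ / A 0 0) =
    (A 0 0 * x₀ + s) / A 0 0 * (A 0 j.succ * x j) by ring, ← Finset.mul_sum, hs, dotProduct]
  field_simp
  ring

theorem schur_isSymm {A : Matrix (Fin (n + 1)) (Fin (n + 1)) K} (hA : A.IsSymm) :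
    (schur A).IsSymm := IsSymm.ext fun i j => by
  simp only [schur, hA.apply i.succ, mul_comm]

theorem posDef_schur {A : Matrix (Fin (n + 1)) (Fin (n + 1)) ℝ} (hA : A.PosDef) :
    (schur A).PosDef := by
  have hs : A.IsSymm := isHermitian_iff_isSymm.1 hA.1
  have h0 := hA.diag_pos (i := 0)
  refine PosDef.of_dotProduct_mulVec_pos (isHermitian_iff_isSymm.2 (schur_isSymm hs))
    fun x hx => ?_
  have := hA.dotProduct_mulVec_pos (x := Fin.cons (-(∑ j, A 0 j.succ * x j) / A 0 0) x)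
    fun e => hx (funext fun i => by simpa using congrFun e i.succ)
  rwa [star_trivial, form_cons hs h0.ne', mul_div_cancel₀ _ h0.ne', neg_add_cancel,
    zero_pow two_ne_zero, zero_div, zero_add] at this

end Schur

variable {ι : Type*} [Fintype ι]

theorem exists_coercive {A : Matrix ι ι ℝ} (hA : A.PosDef) :
    ∃ ε > 0, ∀ x : ι → ℝ, ε * ∑ i, x i ^ 2 ≤ x ⬝ᵥ A *ᵥ x := by
  rcases isEmpty_or_nonempty ι with h | h
  · exact ⟨1, one_pos, fun x => by simp [dotProduct]⟩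
  obtain ⟨u, hu, hmin⟩ := (isCompact_sphere (0 : ι → ℝ) 1).exists_isMinOn
    (f := fun x => x ⬝ᵥ A *ᵥ x) (NormedSpace.sphere_nonempty.2 zero_le_one)
    (Continuous.continuousOn (by unfold mulVec dotProduct; fun_prop))
  have h1 : 0 < u ⬝ᵥ A *ᵥ u := hA.dotProduct_mulVec_pos (by rintro rfl; simp at hu)
  have hc : (0 : ℝ) < Fintype.card ι := by exact_mod_cast Fintype.card_pos
  refine ⟨u ⬝ᵥ A *ᵥ u / Fintype.card ι, by positivity, fun x => ?_⟩
  rcases eq_or_ne x 0 with rfl | hx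
  · simp
  have hn := norm_pos_iff.2 hx
  have h2 : u ⬝ᵥ A *ᵥ u ≤ (‖x‖⁻¹ • x) ⬝ᵥ A *ᵥ (‖x‖⁻¹ • x) :=
    hmin (by simp [norm_smul, hn.ne'])
  rw [mulVec_smul, dotProduct_smul, smul_dotProduct, smul_eq_mul, smul_eq_mul] at h2
  have h3 : ∑ i, x i ^ 2 ≤ Fintype.card ι * ‖x‖ ^ 2 := by
    rw [← nsmul_eq_mul, ← Finset.card_univ]
    exact Finset.sum_le_card_nsmul _ _ _ fun i _ => by
      rw [← sq_abs]; exact pow_le_pow_left₀ (abs_nonneg _) (norm_le_pi_norm x i) 2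
  calc _ ≤ u ⬝ᵥ A *ᵥ u / Fintype.card ι * (Fintype.card ι * ‖x‖ ^ 2) := by gcongr
    _ = u ⬝ᵥ A *ᵥ u * ‖x‖ ^ 2 := by field_simp
    _ ≤ ‖x‖⁻¹ * (‖x‖⁻¹ * x ⬝ᵥ A *ᵥ x) * ‖x‖ ^ 2 := by gcongr
    _ = _ := by field_simp

theorem summable_prod_pi {n : ℕ} (f : Fin n → ℤ → ℝ) (hf : ∀ i, Summable (f i))
    (h0 : ∀ i k, 0 ≤ f i k) : Summable fun x : Fin n → ℤ => ∏ i, f i (x i) := by
  induction n with
  | zero => exact Summable.of_finite
  | succ n ih =>
    rw [← (Fin.consEquiv fun _ => ℤ).summable_iff]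
    refine ((hf 0).mul_of_nonneg (ih _ (fun i => hf i.succ) fun i => h0 i.succ) (h0 0)
      fun x => Finset.prod_nonneg fun i _ => h0 _ _).congr fun x => ?_
    simp [Fin.prod_univ_succ, Fin.consEquiv]

theorem summable_norm_one {a : ℂ} (ha : 0 < a.re) (b c : ℂ) :
    Summable fun k : ℤ => ‖cexp (-a * k ^ 2 + b * k + c)‖ := by
  simp only [Complex.exp_add _ c, norm_mul]
  refine Summable.mul_right _ (summable_of_isBigO (Real.summable_abs_int_rpow one_lt_two) ?_)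
  have := (cexp_neg_quadratic_isLittleO_abs_rpow_cocompact (a := -a) (by simpa using ha) b
    (-2)).isBigO.comp_tendsto Int.tendsto_coe_cofinite
  exact this.norm_left

/-- The Gaussian with a linear term. -/
noncomputable def gauss (A : Matrix ι ι ℝ) (t : ℂ) (b : ι → ℂ) (x : ι → ℤ) : ℂ :=
  cexp (-π * t * ((fun i => (x i : ℂ)) ⬝ᵥ A.map ofReal *ᵥ fun i => (x i : ℂ)) +
    2 * π * ∑ i, b i * x i)

theorem form_cast (A : Matrix ι ι ℝ) (x : ι → ℤ) :
    ((fun i => (x i : ℂ)) ⬝ᵥ A.map ofReal *ᵥ fun i => (x i : ℂ)) =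
      (((fun i => (x i : ℝ)) ⬝ᵥ A *ᵥ fun i => (x i : ℝ) : ℝ) : ℂ) := by
  simp [mulVec, dotProduct]

theorem summable_norm_gauss {n : ℕ} {A : Matrix (Fin n) (Fin n) ℝ} (hA : A.PosDef) {t : ℂ}
    (ht : 0 < t.re) (b : Fin n → ℂ) : Summable fun x => ‖gauss A t b x‖ := by
  obtain ⟨ε, hε, h⟩ := exists_coercive hA
  refine Summable.of_nonneg_of_le (fun _ => norm_nonneg _) (fun x => ?_)
    (summable_prod_pi _ (fun i => summable_norm_one (a := π * t * ε)
      (by simpa using by positivity) (2 * π * b i) 0) fun _ _ => norm_nonneg _)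
  rw [← norm_prod, ← Complex.exp_sum, gauss, form_cast, Complex.norm_exp, Complex.norm_exp]
  refine Real.exp_le_exp.2 ?_
  have h1 : ∑ i, (-(π * t * ε) * (x i : ℂ) ^ 2 + 2 * π * b i * x i + 0) =
      -π * t * ((ε * ∑ i, (x i : ℝ) ^ 2 : ℝ) : ℂ) + 2 * π * ∑ i, b i * x i := by
    push_cast
    simp only [Finset.mul_sum, ← Finset.sum_add_distrib]
    exact Finset.sum_congr rfl fun i _ => by ring
  have h2 : ∀ r : ℝ, (-π * t * r : ℂ).re = -(π * t.re * r) := fun r => by simp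
  rw [h1, add_re, add_re, h2, h2]
  have := mul_le_mul_of_nonneg_left (h fun i => x i) (mul_pos pi_pos ht).le
  linarith

theorem map_inv_mul [DecidableEq ι] {A : Matrix ι ι ℝ} (hA : A.PosDef) :
    A⁻¹.map ofReal * A.map ofReal = 1 := by
  have := Matrix.map_mul (L := A⁻¹) (M := A) (f := ofRealHom)
  rw [nonsing_inv_mul _ ((isUnit_iff_isUnit_det _).1 hA.isUnit)] at this
  rw [Matrix.map_one _ (map_zero _) (map_one _)] at this
  exact this.symm

theorem form_inv [DecidableEq ι] {A : Matrix ι ι ℝ} (hA : A.PosDef) (x : ι → ℂ) :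
    (A.map ofReal *ᵥ x) ⬝ᵥ A⁻¹.map ofReal *ᵥ (A.map ofReal *ᵥ x) = x ⬝ᵥ A.map ofReal *ᵥ x := by
  rw [mulVec_mulVec, map_inv_mul hA, one_mulVec, dotProduct_comm]

theorem form_inv_cons {n : ℕ} {A : Matrix (Fin (n + 1)) (Fin (n + 1)) ℝ} (hA : A.PosDef)
    (z : Fin (n + 1) → ℂ) : z ⬝ᵥ A⁻¹.map ofReal *ᵥ z = z 0 ^ 2 / A 0 0 +
      (fun i => z i.succ - z 0 * A 0 i.succ / A 0 0) ⬝ᵥ (schur A)⁻¹.map ofReal *ᵥ
        fun i => z i.succ - z 0 * A 0 i.succ / A 0 0 := by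
  obtain ⟨x, rfl⟩ : ∃ x, A.map ofReal *ᵥ x = z := ⟨A⁻¹.map ofReal *ᵥ z, by
    rw [mulVec_mulVec, mul_eq_one_comm.1 (map_inv_mul hA), one_mulVec]⟩
  have hs : (A.map ofReal).IsSymm := (isHermitian_iff_isSymm.1 hA.1).map _
  have h0 : A.map ofReal 0 0 ≠ 0 := ofReal_ne_zero.2 hA.diag_pos.ne'
  have h1 : (schur A).map ofReal = schur (A.map ofReal) := by
    ext i j; simp [schur]
  obtain ⟨x₀, x, rfl⟩ : ∃ x₀ x', x = Fin.cons x₀ x' := ⟨_, _, (Fin.cons_self_tail x).symm⟩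
  have h2 : (fun i : Fin n => (A.map ofReal *ᵥ Fin.cons x₀ x) i.succ -
      (A.map ofReal *ᵥ Fin.cons x₀ x) 0 * A 0 i.succ / A 0 0) = (schur A).map ofReal *ᵥ x := by
    ext i; rw [mulVec_cons_succ hs h0, h1]; simp
  rw [h2, form_inv hA, form_cons hs h0, ← h1, form_inv (posDef_schur hA), ← mulVec_cons_zero]
  rfl

/-- The dual Gaussian. -/
noncomputable def dual (C : Matrix ι ι ℝ) (t : ℂ) (b : ι → ℂ) (y : ι → ℤ) : ℂ :=
  cexp (-π / t * ((fun i => y i + I * b i) ⬝ᵥ C.map ofReal *ᵥ fun i => y i + I * b i))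

theorem summable_dual {n : ℕ} {C : Matrix (Fin n) (Fin n) ℝ} (hC : C.PosDef) {t : ℂ}
    (ht : 0 < t.re) (b : Fin n → ℂ) : Summable (dual C t b) := by
  have hs : (C.map ofReal).IsSymm := (isHermitian_iff_isSymm.1 hC.1).map _
  refine ((summable_norm_gauss hC (t := t⁻¹) (by
    rw [inv_re]; exact div_pos ht (normSq_pos.2 (by rintro rfl; simp at ht)))
    (fun i => -(I / t) * (C.map ofReal *ᵥ b) i)).of_norm.mul_right
    (cexp (π / t * (b ⬝ᵥ C.map ofReal *ᵥ b)))).congr fun y => ?_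
  rw [gauss, dual, ← Complex.exp_add]
  congr 1
  have h1 : (fun i => y i + I * b i) = (fun i => (y i : ℂ)) + I • b := rfl
  have h2 : ∑ i, -(I / t) * (C.map ofReal *ᵥ b) i * y i =
      -(I / t) * ((fun i => (y i : ℂ)) ⬝ᵥ C.map ofReal *ᵥ b) := by
    simp only [dotProduct, Finset.mul_sum]
    exact Finset.sum_congr rfl fun i _ => by ring
  have h3 : (b ⬝ᵥ C.map ofReal *ᵥ fun i => (y i : ℂ)) = (fun i => (y i : ℂ)) ⬝ᵥ C.map ofReal *ᵥ b := by
    rw [dotProduct_mulVec, ← mulVec_transpose, hs, dotProduct_comm]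
  rw [h1, h2, mulVec_add, add_dotProduct, dotProduct_add, dotProduct_add, mulVec_smul]
  simp only [dotProduct_smul, smul_dotProduct, smul_eq_mul, h3]
  linear_combination (π / t * (b ⬝ᵥ C.map ofReal *ᵥ b)) * I_mul_I

theorem poisson {n : ℕ} {A : Matrix (Fin n) (Fin n) ℝ} (hA : A.PosDef) :
    ∃ κ : ℂ, ∀ t : ℂ, 0 < t.re → ∀ b, ∑' x, gauss A t b x =
      κ * (1 / t ^ (1 / 2 : ℂ)) ^ n * ∑' y, dual A⁻¹ t b y := by
  induction n with
  | zero => exact ⟨1, fun t _ b => by simp [gauss, dual]⟩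
  | succ n ih =>
  obtain ⟨κ, hκ⟩ := ih (posDef_schur hA)
  have ha : 0 < A 0 0 := hA.diag_pos
  have ha' : (A 0 0 : ℂ) ≠ 0 := ofReal_ne_zero.2 ha.ne'
  refine ⟨1 / (A 0 0 : ℂ) ^ (1 / 2 : ℂ) * κ, fun t ht b => ?_⟩
  have ht0 : t ≠ 0 := by rintro rfl; simp at ht
  have hta : 0 < (A 0 0 * t).re := by simpa using by positivity
  have hs : (A.map ofReal).IsSymm := (isHermitian_iff_isSymm.1 hA.1).map _
  have h1 : (schur A).map ofReal = schur (A.map ofReal) := by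
    ext i j; simp [schur]
  let f : ℤ → ℂ := fun y => cexp (-π / (A 0 0 * t) * (y + I * b 0) ^ 2)
  let β : ℤ → Fin n → ℂ := fun y i => b i.succ + I * (y + I * b 0) * A 0 i.succ / A 0 0
  have h2 : ∀ x : Fin n → ℤ, ∑' x₀ : ℤ, gauss A t b (Fin.cons x₀ x) =
      1 / (A 0 0 * t) ^ (1 / 2 : ℂ) * ∑' y : ℤ, f y * gauss (schur A) t (β y) x := by
    intro x
    obtain ⟨s, hs'⟩ : ∃ s : ℂ, s = ∑ j, (A 0 j.succ : ℂ) * x j := ⟨_, rfl⟩
    obtain ⟨q, hq⟩ : ∃ q : ℂ,
      q = (fun i => (x i : ℂ)) ⬝ᵥ (schur A).map ofReal *ᵥ fun i => (x i : ℂ) := ⟨_, rfl⟩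
    obtain ⟨l, hl⟩ : ∃ l : ℂ, l = ∑ j, b j.succ * x j := ⟨_, rfl⟩
    have h3 := Complex.tsum_exp_neg_quadratic hta (b 0 - t * s)
    have h4 := congrArg (· * cexp (-π * t * (s ^ 2 / A 0 0 + q) + 2 * π * l)) h3
    beta_reduce at h4
    rw [mul_assoc (1 / _), ← tsum_mul_right, ← tsum_mul_right] at h4
    refine Eq.trans (tsum_congr fun x₀ => ?_) (h4.trans (congrArg _ (tsum_congr fun y => ?_)))
    · have h5 : (fun i => ((Fin.cons x₀ x : Fin (n + 1) → ℤ) i : ℂ)) =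
          Fin.cons (x₀ : ℂ) fun i => (x i : ℂ) := by
        ext i; refine Fin.cases ?_ (fun i => ?_) i <;> simp
      rw [gauss, h5, form_cons hs ha', ← h1, Fin.sum_univ_succ, ← Complex.exp_add]
      simp only [map_apply, Fin.cons_zero, Fin.cons_succ]
      rw [← hs', ← hq, ← hl]
      congr 1
      field_simp
      ring
    · have h5 : ∑ i, β y i * x i = l + I * (y + I * b 0) / A 0 0 * s := by
        rw [hl, hs', Finset.mul_sum, ← Finset.sum_add_distrib]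
        exact Finset.sum_congr rfl fun i _ => by simp only [β]; ring
      rw [gauss, h5, ← hq, ← Complex.exp_add, ← Complex.exp_add]
      congr 1
      field_simp
      linear_combination (-t ^ 2 * s ^ 2) * I_mul_I
  have h3 : Summable fun p : ℤ × (Fin n → ℤ) => f p.1 * gauss (schur A) t (β p.1) p.2 := by
    have h4 : Summable fun y => ‖f y‖ :=
      (summable_norm_one (a := π / (A 0 0 * t)) (by
        rw [div_eq_mul_inv, re_ofReal_mul, inv_re]
        exact mul_pos pi_pos (div_pos hta (normSq_pos.2 (mul_ne_zero ha' ht0))))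
        (-π / (A 0 0 * t) * (2 * I * b 0)) (-π / (A 0 0 * t) * (I * b 0) ^ 2)).congr fun y => by
        simp only [f]; congr 2; ring
    refine Summable.of_norm ((h4.mul_of_nonneg (summable_norm_gauss (posDef_schur hA) ht (β 0))
      (fun _ => norm_nonneg _) fun _ => norm_nonneg _).congr fun p => ?_)
    rw [norm_mul]
    congr 1
    rw [gauss, gauss, Complex.norm_exp, Complex.norm_exp]
    congr 1
    have h5 : ∑ i, β p.1 i * p.2 i = ∑ i, β 0 i * p.2 i +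
        I * ((∑ i, p.1 * A 0 i.succ / A 0 0 * p.2 i : ℝ) : ℂ) := by
      push_cast
      rw [Finset.mul_sum, ← Finset.sum_add_distrib]
      exact Finset.sum_congr rfl fun i _ => by simp only [β]; push_cast; ring
    rw [h5]
    simp only [mul_add, add_re, mul_re, I_re, I_im, ofReal_im, ofReal_re, mul_im, re_ofNat, im_ofNat]
    ring
  have h4 := (Fin.consEquiv fun _ => ℤ).summable_iff.2 (summable_norm_gauss hA ht b).of_norm
  have h5 := (Fin.consEquiv fun _ => ℤ).summable_iff.2 (summable_dual hA.inv ht b)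
  rw [← (Fin.consEquiv fun _ => ℤ).tsum_eq, ← (Fin.consEquiv fun _ => ℤ).tsum_eq (dual _ _ _)]
  have h6 : ((A 0 0 : ℂ) * t) ^ (1 / 2 : ℂ) = (A 0 0 : ℂ) ^ (1 / 2 : ℂ) * t ^ (1 / 2 : ℂ) := by
    rw [cpow_def_of_ne_zero (mul_ne_zero ha' ht0), cpow_def_of_ne_zero ha', cpow_def_of_ne_zero ht0,
      log_ofReal_mul ha ht0, add_mul, Complex.exp_add, ofReal_log ha.le]
  have h7 : ∀ (y : ℤ) (y' : Fin n → ℤ),
      f y * dual (schur A)⁻¹ t (β y) y' = dual A⁻¹ t b (Fin.cons y y') := fun y y' => by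
    rw [dual, dual, form_inv_cons hA, ← Complex.exp_add]
    simp only [Fin.cons_zero, Fin.cons_succ]
    have h8 : (fun i => y' i + I * β y i) =
        fun i => y' i + I * b i.succ - (y + I * b 0) * A 0 i.succ / A 0 0 := by
      ext i; simp only [β]; linear_combination ((y + I * b 0) * A 0 i.succ / A 0 0) * I_mul_I
    rw [h8]
    congr 1
    field_simp
    ring
  calc ∑' p : ℤ × (Fin n → ℤ), gauss A t b (Fin.consEquiv (fun _ => ℤ) p)
      = ∑' (x : Fin n → ℤ) (x₀ : ℤ), gauss A t b (Fin.cons x₀ x) :=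
        h4.tsum_prod.trans (Summable.tsum_comm (f := fun a c => gauss A t b (Fin.cons a c)) h4).symm
    _ = 1 / (A 0 0 * t) ^ (1 / 2 : ℂ) * ∑' (y : ℤ) (x : Fin n → ℤ), f y * gauss (schur A) t (β y) x := by
        rw [tsum_congr h2, tsum_mul_left,
          Summable.tsum_comm (f := fun y x => f y * gauss (schur A) t (β y) x) h3]
    _ = 1 / (A 0 0 * t) ^ (1 / 2 : ℂ) * (κ * (1 / t ^ (1 / 2 : ℂ)) ^ n *
          ∑' (y : ℤ) (y' : Fin n → ℤ), dual A⁻¹ t b (Fin.cons y y')) := by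
        congr 1
        rw [← tsum_mul_left]
        refine tsum_congr fun y => ?_
        rw [tsum_mul_left, hκ t ht, mul_left_comm, ← tsum_mul_left, tsum_congr (h7 y)]
    _ = _ := by
        rw [h6, show ∑' p : ℤ × (Fin n → ℤ), dual A⁻¹ t b (Fin.consEquiv (fun _ => ℤ) p) = _ from
          h5.tsum_prod]
        simp only [Function.comp, Fin.consEquiv, Equiv.coe_fn_mk]
        ring

end CfsgLib.Theta
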